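/-
Project OD9 (nine simple groups are determined by order and character degree graph): definitions, and the steps of
the proof stated as propositions.
-/
import Cfsg.Agent.Blk.MathOrdA
import Cfsg.Prelude.Def_Classical
import Cfsg.Prelude.Def_Sz
import Cfsg.Prelude.Def_CaseTheorems

set_option autoImplicit false

namespace CL.OD9

open Cfsg Subgroup CL.Spor CL.Spor.MO
open scoped commutatorElement

universe u v

def NS (G : Type*) [Group G] : Prop := IsSimpleGroup G ∧ ¬ IsMulCommutative G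

def IsoL2 (q : ℕ) (G : Type*) [Group G] : Prop := ∃ (F : Type) (_ : Field F) (_ : Fintype F),
  Fintype.card F = q ∧ Nonempty (G ≃* Matrix.ProjectiveSpecialLinearGroup (Fin 2) F)
def IsoU3 (q : ℕ) (G : Type*) [Group G] : Prop := ∃ (F : Type) (_ : Field F) (_ : Fintype F),
  Fintype.card F = q ^ 2 ∧ Nonempty (G ≃* PSU 3 F q)
def IsoSz (m : ℕ) (G : Type*) [Group G] : Prop := ∃ (F : Type) (_ : Field F) (_ : Fintype F),
  Fintype.card F = 2 ^ (2 * m + 1) ∧ Nonempty (G ≃* ↥(Lie.Sz F (2 ^ (m + 1))))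

/-! ### Models -/

def MOD : Prop := ∀ (S : Type u) [Group S],
  (∀ q, 4 ≤ q → IsoL2 q S → NS S ∧ Nat.card S * Nat.gcd 2 (q - 1) = q * (q ^ 2 - 1)) ∧
  (∀ q, 3 ≤ q → IsoU3 q S → NS S ∧ Nat.card S * Nat.gcd 3 (q + 1) = q ^ 3 * (q ^ 2 - 1) * (q ^ 3 + 1)) ∧
  ∀ m, 1 ≤ m → IsoSz m S → NS S ∧
    Nat.card S = (2 ^ (2 * m + 1)) ^ 2 * ((2 ^ (2 * m + 1)) ^ 2 + 1) * (2 ^ (2 * m + 1) - 1)
def CONG : Prop := ∀ (G : Type u) [Group G] (S : Type v) [Group S],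
  (∀ q, IsoL2 q G → IsoL2 q S → Nonempty (G ≃* S)) ∧ (∀ q, IsoU3 q G → IsoU3 q S → Nonempty (G ≃* S)) ∧
  ∀ m, IsoSz m G → IsoSz m S → Nonempty (G ≃* S)

/-- the large prime divides a degree -/
def DP0 : Prop := ∀ (G : Type u) [Group G] [Finite G] (g p : ℕ) (b : PBk G g p), IsSimpleGroup G → b.v = 1 →
  1 + (b.c.map fun d => d * d).sum + (p - 1) / b.e * (b.F.natAbs * b.F.natAbs) ≠ g → p ∈ degreePrimes G
def DP : Prop := ∀ (S : Type u) [Group S] [Finite S], NS S → ∀ x ∈ ([(6072, 23), (7800, 13), (51888, 47), (265680, 41),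
  (29120, 13), (32537600, 41), (42573600, 73)] : List (ℕ × ℕ)), Nat.card S = x.1 → x.2 ∈ degreePrimes S

/-- identification of a simple group whose order divides `N` and is divisible by `p` -/
def ID (N p : ℕ) (P : (G : Type u) → [Group G] → Prop) : Prop :=
  ∀ (T : Type u) [Group T] [Finite T], NS T → Nat.card T ∣ N → p ∣ Nat.card T → P T
def IDA : Prop := ID.{u} 6072 23 (fun T _ => IsoL2 23 T) ∧ ID.{u} 51888 47 (fun T _ => IsoL2 47 T) ∧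
  ID.{u} 29120 13 (fun T _ => IsoSz 1 T) ∧ ID.{u} 32537600 41 fun T _ => IsoSz 2 T
def IDB : Prop := ID.{u} 7800 13 (fun T _ => IsoL2 25 T) ∧ ID.{u} 265680 41 fun T _ => IsoL2 81 T

/-- the principal block -/
def BK (g p : ℕ) (c : List ℕ) (F : ℤ) (T : Type*) [Group T] : Prop :=
  ∃ b : PBk T g p, b.v = 1 ∧ b.e = 3 ∧ b.c = c ∧ b.F = F
def SV9 : Prop := ID.{u} 42573600 73 fun T _ => Nat.card T = 42573600
def SV7 : Prop := ID.{u} 5663616 43 fun T _ => BK 5663616 43 [42, 343] (-384) T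
def SV8 : Prop := ID.{u} 5515776 19 fun T _ => 64 ∣ Nat.card T → BK 5515776 19 [56, 512] (-567) T

/-! ### Sylow 2-subgroups of order at most 32 -/

section two
variable {G : Type u} [Group G]

def Iv (x : G) : Prop := x * x = 1 ∧ x ≠ 1

/-- fusion facts -/
structure Fs (S : Subgroup G) : Prop where
  tc : ∀ D : Subgroup G, S ≤ normalizer (D : Set G) → ∀ w ∈ S, (∀ s ∈ S, ∃ i : ℤ, (w ^ i)⁻¹ * s ∈ D) →
    ∀ t : G, Iv t → ∃ g : G, g * t * g⁻¹ ∈ D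
  zs : ∀ z ∈ S, Iv z → ∃ g : G, g * z * g⁻¹ ∈ S ∧ g * z * g⁻¹ ≠ z
  ex : ∀ z ∈ S, (∀ s ∈ S, Commute s z) → ∀ x ∈ S, IsConj x z →
    ∃ g : G, g * x * g⁻¹ = z ∧ ∀ s ∈ S, Commute s x → g * s * g⁻¹ ∈ S
  nz : ∀ g : G, (∀ s ∈ S, g * s * g⁻¹ ∈ S) → ∃ k : ℕ, Odd k ∧ g ^ k ∈ S

def E8 (S E : Subgroup G) : Prop := E ≤ S ∧ Nat.card E = 8 ∧ ∀ a ∈ E, a * a = 1
/-- not of class at most two -/
def NC2 (S : Subgroup G) : Prop := ∃ a ∈ S, ∃ b ∈ S, ∃ c ∈ S, ¬ Commute ⁅a, b⁆ c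
def W4 (c z x : G) : Prop := x = 1 ∨ x = c ∨ x = z ∨ x = c * z
def D8 (z e f x : G) : Prop :=
  x = 1 ∨ x = z ∨ x = e ∨ x = e * z ∨ x = f ∨ x = f * z ∨ x = e * f ∨ x = e * f * z

/-- a normal `E₈` with cyclic quotient -/
structure TA (S : Subgroup G) (z c b d x : G) : Prop where
  zS : z ∈ S
  cS : c ∈ S
  bS : b ∈ S
  dS : d ∈ S
  xS : x ∈ S
  iz : Iv z
  ic : Iv c
  cz : c ≠ z
  b2 : b * b = 1
  d2 : d * d = 1
  bW : ¬ W4 c z b
  dW : ¬ W4 c z d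
  zc : ∀ s ∈ S, Commute s z
  bc : Commute b c
  dc : Commute d c
  bd : b * d * b = d * z
  xc : x * c * x⁻¹ = c * z
  xb : x * b * x⁻¹ = b * c
  xd : x * d * x⁻¹ = d ∨ x * d * x⁻¹ = d * c
  inv : ∀ s ∈ S, s * s = 1 → W4 c z s ∨ W4 c z (b * s) ∨ W4 c z (d * s)
  der : ∀ s ∈ S, ∀ s' ∈ S, W4 c z ⁅s, s'⁆

/-- no normal `E₈` -/
structure TB (S : Subgroup G) (z t e f w : G) : Prop where
  zS : z ∈ S
  tS : t ∈ S
  eS : e ∈ S
  fS : f ∈ S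
  wS : w ∈ S
  iz : Iv z
  t2 : t * t = 1
  e2 : e * e = 1
  f2 : f * f = 1
  zc : ∀ s ∈ S, Commute s z
  te : Commute t e
  tf : Commute t f
  ef : e * f * e = f * z
  we : w * e * w⁻¹ = f
  wf : w * f * w⁻¹ = e ∨ w * f * w⁻¹ = e * z
  wt : w * t * w⁻¹ = t ∨ w * t * w⁻¹ = t * z
  tD : ¬ D8 z e f t
  ww : ∃ d, D8 z e f d ∧ (w * w = d ∨ w * w = d * t)
  el : ∀ s ∈ S, ∃ d, D8 z e f d ∧ (s = d ∨ s = d * t ∨ s = d * w ∨ s = d * t * w)

end two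

def FS : Prop := ∀ (G : Type u) [Group G] [Finite G], NS G → ∀ S : Sylow 2 G, Fs (S : Subgroup G)
def SC : Prop := ∀ (G : Type u) [Group G] [Finite G] (S E : Subgroup G), Nat.card S = 32 → E8 S E →
  S ≤ normalizer (E : Set G) → NC2 S → S ⊓ centralizer (E : Set G) ≤ E
def SA : Prop := ∀ (G : Type u) [Group G] [Finite G] (S E : Subgroup G), Nat.card S = 32 → E8 S E →
  S ≤ normalizer (E : Set G) → NC2 S → S ⊓ centralizer (E : Set G) ≤ E →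
    ∃ E' : Subgroup G, E8 S E' ∧ S ≤ normalizer (E' : Set G) ∧ ∃ x ∈ S, x * x ∉ E'
def SB : Prop := ∀ (G : Type u) [Group G] [Finite G] (S E : Subgroup G), Nat.card S = 32 → E8 S E →
  S ≤ normalizer (E : Set G) → S ⊓ centralizer (E : Set G) ≤ E → ∀ x ∈ S, x * x ∉ E → ∃ z c b d, TA S z c b d x
def SD : Prop := ∀ (G : Type u) [Group G] [Finite G] (S E : Subgroup G), Nat.card S = 32 → E8 S E →
  (∀ E', E8 S E' → ¬ S ≤ normalizer (E' : Set G)) → ∃ z t e f w, TB S z t e f w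
def FA : Prop := ∀ (G : Type u) [Group G] (S : Subgroup G) (z c b d x : G), Fs S → TA S z c b d x → False
def FB1 : Prop := ∀ (G : Type u) [Group G] (S : Subgroup G) (z t e f w : G), Fs S → TB S z t e f w →
  w * t * w⁻¹ = t → False
def FB2 : Prop := ∀ (G : Type u) [Group G] (S : Subgroup G) (z t e f w : G), Fs S → TB S z t e f w →
  w * t * w⁻¹ = t * z → False
def Two32 : Prop := ∀ (G : Type u) [Group G] [Finite G], NS G → ∀ S : Sylow 2 G, Nat.card (S : Subgroup G) = 32 →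
  ∀ E, E8 (S : Subgroup G) E → ¬ NC2 (S : Subgroup G)

theorem two32 (h0 : FS.{u}) (h1 : SC.{u}) (h2 : SA.{u}) (h3 : SB.{u}) (h4 : SD.{u}) (h5 : FA.{u}) (h6 : FB1.{u})
    (h7 : FB2.{u}) : Two32.{u} := by
  intro G _ _ hG S hS E hE hn
  have fs := h0 G hG S
  by_cases k : ∃ E', E8 (S : Subgroup G) E' ∧ (S : Subgroup G) ≤ normalizer (E' : Set G)
  · obtain ⟨E1, a, b⟩ := k
    obtain ⟨E2, c, d, x, hx, hx'⟩ := h2 G S E1 hS a b hn (h1 G S E1 hS a b hn)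
    obtain ⟨z, c', b', d', h⟩ := h3 G S E2 hS c d (h1 G S E2 hS c d hn) x hx hx'
    exact h5 G S z c' b' d' x fs h
  · obtain ⟨z, t, e, f, w, h⟩ := h4 G S E hS hE fun E' a b => k ⟨E', a, b⟩
    exact h.wt.elim (h6 G S z t e f w fs h) (h7 G S z t e f w fs h)

/-- the list of orders -/
def LST (T : Type*) [Group T] : Prop :=
  (∃ q : ℕ, 2 * Nat.card T = q * (q ^ 2 - 1) ∨ Nat.card T = q * (q ^ 2 - 1)) ∨
  (∃ q : ℕ, Nat.card T * Nat.gcd 3 (q - 1) = q ^ 3 * (q ^ 2 - 1) * (q ^ 3 - 1)) ∨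
  (∃ q : ℕ, Odd q ∧ IsoU3 q T ∧ Nat.card T * Nat.gcd 3 (q + 1) = q ^ 3 * (q ^ 2 - 1) * (q ^ 3 + 1)) ∨
  (∃ q : ℕ, 27 ≤ q ∧ Nat.card T = q ^ 3 * (q ^ 3 + 1) * (q - 1)) ∨
  Nat.card T = 2520 ∨ Nat.card T = 7920 ∨ Nat.card T = 62400 ∨ Nat.card T = 175560
def R2 : Prop := ∀ (T : Type u) [Group T] [Finite T], NS T → PRankLE 2 2 T → LST T
def CL2 : Prop := ∀ (T : Type u) [Group T] [Finite T], NS T → ¬ 64 ∣ Nat.card T → ∀ S : Sylow 2 T,
  ¬ NC2 (S : Subgroup T) → LST T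
def SM : Prop := ∀ (T : Type u) [Group T] [Finite T], NS T → ¬ 64 ∣ Nat.card T → LST T
def AR : Prop := ∀ (T : Type u) [Group T] [Finite T], LST T →
  (Nat.card T = 42573600 → IsoU3 9 T) ∧ (Nat.card T ∣ 5515776 → 19 ∣ Nat.card T → False)

/-! ### `U₃(8)` -/

structure C8 (G : Type u) [Group G] : Prop where
  card : Nat.card G = 5515776
  chi : ∃ χ : IrrCharacter G, charDegree (χ : G → ℂ) = 56 ∧ ∀ t : G, orderOf t = 2 → (χ : G → ℂ) t = -8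
  cent : ∀ t : G, orderOf t = 2 → Nat.card (centralizer ({t} : Set G)) ∣ 4608
def B8 : Prop := ∀ (T : Type u) [Group T] [Finite T], NS T → BK 5515776 19 [56, 512] (-567) T → C8 T
def U8 : Prop := ∀ (T : Type u) [Group T] [Finite T], NS T → C8 T → PRankLE 2 2 T ∨ IsoU3 8 T

/-! ### `U₃(7)` -/

structure X7 (G : Type u) [Group G] (χ : G → ℤ) : Prop where
  one : χ 1 = 42
  cj : ∀ g h : G, χ (h * g * h⁻¹) = χ g
  rat : ∀ (g : G) (k : ℕ), (orderOf g).Coprime k → χ (g ^ k) = χ g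
  lt : ∀ g : G, g ≠ 1 → χ g < 42
  sum : ∀ (H : Subgroup G) [Fintype H], ∃ m : ℕ, ∑ h : H, χ h = Nat.card H * m
  c8 : ∀ y : G, orderOf y = 7 → ∀ Q : Subgroup G, IsPGroup 2 Q → Q ≤ centralizer ({y} : Set G) →
    Nat.card Q ≤ 8 ∧ (Nat.card Q = 8 → χ y = -7)
structure C7 (G : Type u) [Group G] : Prop where
  ns : NS G
  card : Nat.card G = 5663616
  n21 : ∀ g : G, ¬ 21 ∣ orderOf g
  n301 : ∀ g : G, ¬ 301 ∣ orderOf g
  c49 : ∀ t : G, orderOf t = 2 → ¬ 49 ∣ Nat.card (centralizer ({t} : Set G))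
  st : ∀ ψ : IrrCharacter G, charDegree (ψ : G → ℂ) = 343 → ∀ t : G, orderOf t = 2 → (ψ : G → ℂ) t = 7
def B7a : Prop := ∀ (T : Type u) [Group T] [Finite T], NS T → BK 5663616 43 [42, 343] (-384) T → C7 T
def B7b : Prop := ∀ (T : Type u) [Group T] [Finite T], NS T → BK 5663616 43 [42, 343] (-384) T → ∃ χ, X7 T χ
def TI1 : Prop := ∀ (G : Type u) [Group G] [Finite G] (χ : G → ℤ), C7 G → X7 G χ → ∀ P P' : Sylow 7 G,
  Nat.card ((P : Subgroup G) ⊓ P' : Subgroup G) ≠ 49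
def TI2 : Prop := ∀ (G : Type u) [Group G] [Finite G] (χ : G → ℤ), C7 G → X7 G χ →
  (∀ P P' : Sylow 7 G, Nat.card ((P : Subgroup G) ⊓ P' : Subgroup G) ≠ 49) →
    ∀ P P' : Sylow 7 G, P ≠ P' → (P : Subgroup G) ⊓ P' = ⊥

/-- the two-point stabiliser -/
abbrev St {G : Type u} [Group G] (α β : Sylow 7 G) : Subgroup G := MulAction.stabilizer G α ⊓ MulAction.stabilizer G β

/-- the action on the Sylow 7-subgroups -/
structure A7 (G : Type u) [Group G] (α β : Sylow 7 G) : Prop extends C7 G where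
  c8 : ∀ y : G, orderOf y = 7 → ∀ Q : Subgroup G, IsPGroup 2 Q → Q ≤ centralizer ({y} : Set G) → Nat.card Q ≤ 8
  ne : α ≠ β
  cO : Nat.card (Sylow 7 G) = 344
  cP : Nat.card (α : Subgroup G) = 343
  cW : Nat.card (St α β) = 48
  cB : Nat.card (MulAction.stabilizer G α) = 16464
  two : MulAction.IsMultiplyPretransitive G (Sylow 7 G) 2
  tr : ∀ a b c d : Sylow 7 G, a ≠ b → c ≠ d → ∃ g : G, g • a = c ∧ g • b = d
  fx : ∀ w ∈ St α β, Nat.card {ω : Sylow 7 G // w • ω = ω} =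
    1 + Nat.card ((α : Subgroup G) ⊓ centralizer ({w} : Set G) : Subgroup G)
  f2 : ∀ t : G, orderOf t = 2 → Nat.card {ω : Sylow 7 G // t • ω = ω} = 8
def AC : Prop := ∀ (G : Type u) [Group G] [Finite G] (χ : G → ℤ), C7 G → X7 G χ →
  (∀ P P' : Sylow 7 G, P ≠ P' → (P : Subgroup G) ⊓ P' = ⊥) → ∃ α β, A7 G α β
/-- the involutions interchanging the two points -/
def CNT : Prop := ∀ (G : Type u) [Group G] [Finite G] (α β : Sylow 7 G), A7 G α β →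
  {s : G | orderOf s = 2 ∧ s • α = β}.ncard = 6 * {t : G | orderOf t = 2 ∧ t ∈ St α β}.ncard ∧
    {t : G | orderOf t = 2 ∧ t ∈ St α β}.ncard ≤ 8
def Q1 : Prop := ∀ (G : Type u) [Group G] [Finite G] (α β : Sylow 7 G), A7 G α β →
  {t : G | orderOf t = 2 ∧ t ∈ St α β}.ncard ≤ 8 → ∀ Q ≤ St α β, Nat.card Q = 16 → ∃! t, orderOf t = 2 ∧ t ∈ Q
/-- `W = Q × ⟨x⟩` -/
structure WS {G : Type u} [Group G] (W Q : Subgroup G) (t x : G) : Prop where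
  le : Q ≤ W
  cQ : Nat.card Q = 16
  ot : orderOf t = 2
  tQ : t ∈ Q
  un : ∀ s ∈ W, orderOf s = 2 → s = t
  ox : orderOf x = 3
  xW : x ∈ W
  cx : ∀ q ∈ Q, Commute q x
  el : ∀ w ∈ W, ∃ q ∈ Q, ∃ i : ℕ, w = q * x ^ i
def CY1 : Prop := ∀ (G : Type u) [Group G] [Finite G] (α β : Sylow 7 G), A7 G α β →
  (∀ Q ≤ St α β, Nat.card Q = 16 → ∃! t, orderOf t = 2 ∧ t ∈ Q) → ∃ Q t x, WS (St α β) Q t x
def CY2 : Prop := ∀ (G : Type u) [Group G] [Finite G] (α β : Sylow 7 G) (Q : Subgroup G) (t x : G), A7 G α β →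
  WS (St α β) Q t x → {s : G | orderOf s = 2 ∧ s • α = β}.ncard = 6 →
    ∃ s : G, orderOf s = 2 ∧ s • α = β ∧ (∀ q ∈ Q, s * q * s⁻¹ ∈ Q) ∧ ∀ q ∈ Q, s * q * (s * q) = 1 → q = 1 ∨ q = t
def CY3 : Prop := ∀ (G : Type u) [Group G] [Finite G] (α β : Sylow 7 G) (Q : Subgroup G) (t x s : G), A7 G α β →
  WS (St α β) Q t x → orderOf s = 2 → s • α = β → (∀ q ∈ Q, s * q * s⁻¹ ∈ Q) →
    (∀ q ∈ Q, s * q * (s * q) = 1 → q = 1 ∨ q = t) → IsCyclic Q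
def FIN : Prop := ∀ (G : Type u) [Group G] [Finite G] (α β : Sylow 7 G) (Q : Subgroup G) (t x : G), A7 G α β →
  WS (St α β) Q t x → IsCyclic Q → IsoU3 7 G

end CL.OD9
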